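/-
The group ²F₄(q): the quotient `N¹/H¹`.
-/
import Cfsg.Agent.Lib.Tw.ReeF4g
import Cfsg.Agent.Lib.Invol.Basic

set_option autoImplicit false
set_option maxRecDepth 100000

namespace Cfsg.Agent.Lib.Chev

open Cfsg.Lie

theorem wF4_invol : (∀ r, r < chevF4.nroots → wperm digF4.tbl [0, 3] (wperm digF4.tbl [0, 3] r) = r) ∧
    (∀ r, r < chevF4.nroots → wperm digF4.tbl [1, 2, 1, 2] (wperm digF4.tbl [1, 2, 1, 2] r) = r) := by
  decide +kernel

theorem wF4_pow8 : ∀ r, r < chevF4.nroots → wperm digF4.tbl ((List.replicate 8 [0, 3, 1, 2, 1, 2]).flatten) r = r := by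
  decide +kernel

theorem wF4_pow4 : wperm digF4.tbl ((List.replicate 4 [0, 3, 1, 2, 1, 2]).flatten) 33 ≠ 33 := by
  decide +kernel

section

variable {K : Type*} [Field K] [CharP K 2] (hperf : ∀ x : K, ∃ y : K, y ^ 2 = x) (φ : K ≃+* K)

/-- The quotient of `N¹` by `H¹`. -/
theorem nQuotF4 (hφ : ∀ x, φ (φ (x ^ 2)) = x) :
    ∃ f : ↥(chevF4.monomialSubgroup K ⊓ (twF4 hperf φ).fix) →* DihedralGroup 8, Function.Surjective f ∧
      f.ker = (chevF4.diagonalSubgroup K ⊓ (twF4 hperf φ).fix).subgroupOf (chevF4.monomialSubgroup K ⊓ (twF4 hperf φ).fix) := by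
  classical
  set A := twnF4 hperf φ hφ with hA
  let P := TwN.permFix good3F4.toGood2 (twF4 hperf φ)
  let x := P (A.sF' 0 (show 0 < 2 by decide))
  let y := P (A.sF' 1 (show 1 < 2 by decide))
  have hx : ∀ r : Fin chevF4.nroots, (x r : ℕ) = wperm digF4.tbl [0, 3] r := fun r => A.permFix_s _ r
  have hy : ∀ r : Fin chevF4.nroots, (y r : ℕ) = wperm digF4.tbl [1, 2, 1, 2] r := fun r => A.permFix_s _ r
  have hpw : ∀ (k : ℕ) (r : Fin chevF4.nroots), (((x * y) ^ k) r : ℕ) = wperm digF4.tbl ((List.replicate k [0, 3, 1, 2, 1, 2]).flatten) r := by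
    intro k r
    induction k with
    | zero => rfl
    | succ k ih =>
      rw [pow_succ', Equiv.Perm.mul_apply, Equiv.Perm.mul_apply, hx, hy, ih, List.replicate_succ, List.flatten_cons,
        wperm_append]
      rfl
  have hxx : x * x = 1 := by
    ext r
    rw [Equiv.Perm.mul_apply, hx, hx]
    exact wF4_invol.1 r r.2
  have hyy : y * y = 1 := by
    ext r
    rw [Equiv.Perm.mul_apply, hy, hy]
    exact wF4_invol.2 r r.2
  have hx1 : x ≠ 1 := by
    intro h
    have h1 := hx ⟨33, by decide⟩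
    rw [h] at h1
    revert h1
    exact (show (33 : ℕ) ≠ wperm digF4.tbl [0, 3] 33 by decide +kernel)
  have hy1 : y ≠ 1 := by
    intro h
    have h1 := hy ⟨33, by decide⟩
    rw [h] at h1
    revert h1
    exact (show (33 : ℕ) ≠ wperm digF4.tbl [1, 2, 1, 2] 33 by decide +kernel)
  have hxy : x ≠ y := by
    intro h
    have h1 := hx ⟨33, by decide⟩
    rw [h, hy] at h1
    revert h1
    exact (show wperm digF4.tbl [1, 2, 1, 2] 33 ≠ wperm digF4.tbl [0, 3] 33 by decide +kernel)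
  have hord : orderOf (x * y) = 8 := by
    refine orderOf_eq_of_pow_and_pow_div_prime (by norm_num) ?_ ?_
    · ext r
      rw [hpw]
      exact wF4_pow8 r r.2
    · intro p hp hd
      have hp2 : p = 2 := (Nat.prime_dvd_prime_iff_eq hp Nat.prime_two).1 (hp.dvd_of_dvd_pow (show p ∣ 2 ^ 3 from hd))
      subst hp2
      intro h
      have h1 := hpw 4 ⟨33, by decide⟩
      rw [show 8 / 2 = 4 by norm_num] at h
      rw [h] at h1
      exact wF4_pow4 h1.symm
  have hD := Cfsg.Agent.Lib.Invol.isDihedral_closure hxx hyy hx1 hy1 hxy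
  rw [hord] at hD
  obtain ⟨e⟩ := hD
  have hR : ∀ z, P z ∈ Subgroup.closure ({x, y} : Set (Equiv.Perm (Fin chevF4.nroots))) := A.permFix_mem (fun j hj => by
    have hj' : j < 2 := hj
    interval_cases j
    · exact Subgroup.subset_closure (Set.mem_insert _ _)
    · exact Subgroup.subset_closure (Set.mem_insert_of_mem _ rfl))
  let f : ↥(chevF4.monomialSubgroup K ⊓ (twF4 hperf φ).fix) →* DihedralGroup 8 := e.toMonoidHom.comp (P.codRestrict _ hR)
  have hf : ∀ z, f z = e ⟨P z, hR z⟩ := fun _ => rfl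
  have hle : Subgroup.closure ({x, y} : Set (Equiv.Perm (Fin chevF4.nroots))) ≤ P.range := by
    refine (Subgroup.closure_le _).2 ?_
    rintro g (rfl | rfl)
    · exact ⟨_, rfl⟩
    · exact ⟨_, rfl⟩
  refine ⟨f, ?_, ?_⟩
  · intro g
    obtain ⟨z, hz⟩ := hle (e.symm g).2
    refine ⟨z, ?_⟩
    rw [hf]
    have e2 : (⟨P z, hR z⟩ : ↥(Subgroup.closure ({x, y} : Set (Equiv.Perm (Fin chevF4.nroots))))) = e.symm g := Subtype.ext hz
    rw [e2, MulEquiv.apply_symm_apply]
  · rw [← TwN.permFix_ker]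
    ext z
    rw [MonoidHom.mem_ker, MonoidHom.mem_ker, hf]
    constructor
    · intro h
      have h2 : (⟨P z, hR z⟩ : ↥(Subgroup.closure ({x, y} : Set (Equiv.Perm (Fin chevF4.nroots))))) = 1 := by
        apply e.injective
        rw [h, map_one]
      exact congrArg Subtype.val h2
    · intro h
      have h2 : (⟨P z, hR z⟩ : ↥(Subgroup.closure ({x, y} : Set (Equiv.Perm (Fin chevF4.nroots))))) = 1 := Subtype.ext h
      rw [h2, map_one]

end

end Cfsg.Agent.Lib.Chev
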