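/-
The quotient N¹/H¹ of the group ³D₄(q).
-/
import Cfsg.Agent.Lib.Tw.Weyl
import Cfsg.Agent.Lib.Tw.D4b
import Cfsg.Agent.Lib.Chev.WeyG2

set_option autoImplicit false
set_option maxRecDepth 100000

namespace Cfsg.Agent.Lib.Chev

open Cfsg.Lie

/-- The restriction of a root. -/
def piWD4 (r : ℕ) : ℕ := [2, 3, 0, 0, 1, 5, 0, 1, 1, 4, 5, 5, 6, 6, 7, 10, 10, 11, 6, 10, 11, 11, 8, 9].getD r 0

theorem relWD4 : ∀ i j : Fin 2, ∀ r, r < chevD4.nroots →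
    wperm digD4.tbl ((List.replicate (CoxeterMatrix.G₂.M i j) (wJD4 i ++ wJD4 j)).flatten) r = r := by decide +kernel

theorem piWeqD4 : ∀ i : Fin 2, ∀ r, r < chevD4.nroots →
    piWD4 (wperm digD4.tbl (wJD4 i) r) = digG2.tbl.refl i (piWD4 r) := by decide +kernel

theorem piWsurjD4 : ∀ r', r' < chevG2.nroots → ∃ r, r < chevD4.nroots ∧ piWD4 r = r' := by decide +kernel

/-- The quotient `N¹/H¹`. -/
theorem nQuotD4 {K : Type*} [Field K] (φ : K ≃+* K) :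
    ∃ f : ↥(chevD4.monomialSubgroup K ⊓ (twD4 φ).fix) →* CoxeterMatrix.G₂.Group, Function.Surjective f ∧
      f.ker = (chevD4.diagonalSubgroup K ⊓ (twD4 φ).fix).subgroupOf (chevD4.monomialSubgroup K ⊓ (twD4 φ).fix) := by
  obtain ⟨-, ρ, h1, h2⟩ := coxG2
  exact (stD4 φ).twN.N_quot_fix rfl CoxeterMatrix.G₂ relWD4 h1 h2 piWD4 piWeqD4 piWsurjD4

end Cfsg.Agent.Lib.Chev
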