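/-
The quotient N¹/H¹ of the group ²E₆(q).
-/
import Cfsg.Agent.Lib.Tw.Weyl
import Cfsg.Agent.Lib.Tw.E6b
import Cfsg.Agent.Lib.Chev.WeyF4

set_option autoImplicit false
set_option maxRecDepth 100000

namespace Cfsg.Agent.Lib.Chev

open Cfsg.Lie

/-- The restriction of a root. -/
def piWE6 (r : ℕ) : ℕ := [3, 7, 8, 0, 1, 0, 9, 2, 11, 4, 5, 18, 15, 16, 21, 23, 1, 2, 10, 4, 12, 6, 5, 6, 13, 14, 15, 19, 17, 22, 16, 17, 20, 21, 22, 23, 24, 25, 26, 27, 30, 31, 25, 30, 28, 32, 33, 34, 41, 42, 41, 35, 43, 37, 45, 46, 24, 26, 31, 32, 29, 42, 43, 36, 45, 38, 47, 46, 47, 39, 40, 44].getD r 0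

theorem relWE6 : ∀ i j : Fin 4, ∀ r, r < chevE6.nroots →
    wperm digE6.tbl ((List.replicate (CoxeterMatrix.F₄.M i j) (wJE6 i ++ wJE6 j)).flatten) r = r := by decide +kernel

theorem piWeqE6 : ∀ i : Fin 4, ∀ r, r < chevE6.nroots →
    piWE6 (wperm digE6.tbl (wJE6 i) r) = digF4.tbl.refl i (piWE6 r) := by decide +kernel

theorem piWsurjE6 : ∀ r', r' < chevF4.nroots → ∃ r, r < chevE6.nroots ∧ piWE6 r = r' := by decide +kernel

/-- The quotient `N¹/H¹`. -/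
theorem nQuotE6 {K : Type*} [Field K] (φ : K ≃+* K) :
    ∃ f : ↥(chevE6.monomialSubgroup K ⊓ (twE6 φ).fix) →* CoxeterMatrix.F₄.Group, Function.Surjective f ∧
      f.ker = (chevE6.diagonalSubgroup K ⊓ (twE6 φ).fix).subgroupOf (chevE6.monomialSubgroup K ⊓ (twE6 φ).fix) := by
  obtain ⟨-, ρ, h1, h2⟩ := coxF4
  exact (stE6 φ).twN.N_quot_fix rfl CoxeterMatrix.F₄ relWE6 h1 h2 piWE6 piWeqE6 piWsurjE6

end Cfsg.Agent.Lib.Chev
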